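import Mathlib

/-!
# Structure of a group whose abelian derived subgroup is the unique minimal normal subgroup
and whose centre is trivial (Isaacs 12.3(b), the part needed for S4463).

`M` normal abelian, `commutator X ≤ M`, `M` contained in every nontrivial normal subgroup,
`center X = ⊥`, `M ≠ ⊥`.  Then `C_X(M) = M` and every `g ∉ M` acts fixed-point-freely on `M`.
-/

namespace Cfsg.Agent.Lib.Helper57.IP

open scoped commutatorElement

variable {X : Type*} [Group X]

/-- `a g a⁻¹ g⁻¹ = b g b⁻¹ g⁻¹` forces `b⁻¹ a` to commute with `g`. -/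
theorem comm_eq_imp {a b g : X} (h : a * g * a⁻¹ * g⁻¹ = b * g * b⁻¹ * g⁻¹) :
    (b⁻¹ * a) * g = g * (b⁻¹ * a) := by
  have h1 : a * g * a⁻¹ = b * g * b⁻¹ := by
    have := congrArg (· * g) h
    simpa [mul_assoc] using this
  have h2 : b⁻¹ * (a * g * a⁻¹) * a = b⁻¹ * (b * g * b⁻¹) * a := by rw [h1]
  simpa [mul_assoc] using h2

/-- The centraliser of `M` is abelian. -/
theorem centralizer_comm (M : Subgroup X) [M.Normal]
    (hab : ∀ a ∈ M, ∀ b ∈ M, a * b = b * a) (hcomm : commutator X ≤ M)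
    (hZ : Subgroup.center X = ⊥) :
    ∀ c₁ ∈ Subgroup.centralizer (M : Set X), ∀ c₂ ∈ Subgroup.centralizer (M : Set X),
      c₁ * c₂ = c₂ * c₁ := by
  intro c₁ h₁ c₂ h₂
  have hmem : ∀ c g : X, c * g * c⁻¹ * g⁻¹ ∈ M := by
    intro c g
    apply hcomm
    rw [commutator_def]
    have : ⁅c, g⁆ ∈ ⁅(⊤ : Subgroup X), (⊤ : Subgroup X)⁆ :=
      Subgroup.commutator_mem_commutator (Subgroup.mem_top c) (Subgroup.mem_top g)
    simpa [commutatorElement_def] using this
  -- key identity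
  have key : ∀ c ∈ Subgroup.centralizer (M : Set X), ∀ d : X, ∀ g : X,
      (c * d) * g * (c * d)⁻¹ * g⁻¹ = (d * g * d⁻¹ * g⁻¹) * (c * g * c⁻¹ * g⁻¹) := by
    intro c hc d g
    have h3 := (Subgroup.mem_centralizer_iff.mp hc) (d * g * d⁻¹ * g⁻¹) (hmem d g)
    -- h3 : (d g d⁻¹ g⁻¹) * c = c * (d g d⁻¹ g⁻¹)
    calc (c * d) * g * (c * d)⁻¹ * g⁻¹
        = (c * (d * g * d⁻¹ * g⁻¹)) * (g * c⁻¹ * g⁻¹) := by group
      _ = ((d * g * d⁻¹ * g⁻¹) * c) * (g * c⁻¹ * g⁻¹) := by rw [h3]
      _ = (d * g * d⁻¹ * g⁻¹) * (c * g * c⁻¹ * g⁻¹) := by group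
  have hcen : (c₂ * c₁)⁻¹ * (c₁ * c₂) ∈ Subgroup.center X := by
    rw [Subgroup.mem_center_iff]
    intro g
    have e1 := key c₁ h₁ c₂ g
    have e2 := key c₂ h₂ c₁ g
    have e3 : (c₁ * c₂) * g * (c₁ * c₂)⁻¹ * g⁻¹ = (c₂ * c₁) * g * (c₂ * c₁)⁻¹ * g⁻¹ := by
      rw [e1, e2]
      exact hab _ (hmem c₂ g) _ (hmem c₁ g)
    exact (comm_eq_imp e3).symm
  rw [hZ, Subgroup.mem_bot] at hcen
  have := congrArg (fun x => (c₂ * c₁) * x) hcen
  simpa [mul_assoc] using this

/-- Main structure statement. -/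
theorem centralizer_eq_and_fpf [Finite X] (M : Subgroup X) [M.Normal]
    (hab : ∀ a ∈ M, ∀ b ∈ M, a * b = b * a) (hcomm : commutator X ≤ M)
    (hmin : ∀ N : Subgroup X, N.Normal → N ≠ ⊥ → M ≤ N) (hne : M ≠ ⊥)
    (hZ : Subgroup.center X = ⊥) :
    Subgroup.centralizer (M : Set X) = M ∧
      ∀ g : X, g ∉ M → ∀ m ∈ M, m * g = g * m → m = 1 := by
  classical
  set C := Subgroup.centralizer (M : Set X) with hC
  have hMC : M ≤ C := by
    intro m hm
    rw [hC, Subgroup.mem_centralizer_iff]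
    intro x hx
    exact hab x hx m hm
  have hCab := centralizer_comm M hab hcomm hZ
  have hmem : ∀ c g : X, c * g * c⁻¹ * g⁻¹ ∈ M := by
    intro c g
    apply hcomm
    rw [commutator_def]
    have : ⁅c, g⁆ ∈ ⁅(⊤ : Subgroup X), (⊤ : Subgroup X)⁆ :=
      Subgroup.commutator_mem_commutator (Subgroup.mem_top c) (Subgroup.mem_top g)
    simpa [commutatorElement_def] using this
  -- general normality lemma: for an abelian subgroup `A ≥ M`, `A ⊓ C(g)` is stable under conjugation
  have hnorm : ∀ (A : Subgroup X), A.Normal → M ≤ A → (∀ a ∈ A, ∀ b ∈ A, a * b = b * a) →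
      ∀ g : X, (A ⊓ Subgroup.centralizer ({g} : Set X)).Normal := by
    intro A hA hMA hAab g
    constructor
    intro e he h
    rw [Subgroup.mem_inf] at he ⊢
    obtain ⟨heA, heg⟩ := he
    have heg' : g * e = e * g := by
      have := Subgroup.mem_centralizer_iff.mp heg g (Set.mem_singleton g)
      exact this
    refine ⟨hA.conj_mem e heA h, ?_⟩
    rw [Subgroup.mem_centralizer_iff]
    intro y hy
    rw [Set.mem_singleton_iff] at hy
    subst hy
    -- want : y * (h e h⁻¹) = (h e h⁻¹) * y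
    -- h⁻¹ y h = y * c with c := y⁻¹ h⁻¹ y h ∈ M ≤ A
    have hc : y⁻¹ * h⁻¹ * y * h ∈ A := by
      have := hmem y⁻¹ h⁻¹
      apply hMA
      simpa using this
    have hcomm2 : (y⁻¹ * h⁻¹ * y * h) * e = e * (y⁻¹ * h⁻¹ * y * h) := hAab _ hc _ heA
    -- (h⁻¹ y h) e = e (h⁻¹ y h)
    have h5 : (h⁻¹ * y * h) * e = e * (h⁻¹ * y * h) := by
      have e1 : h⁻¹ * y * h = y * (y⁻¹ * h⁻¹ * y * h) := by group
      rw [e1, mul_assoc, hcomm2, ← mul_assoc, heg', mul_assoc]
    calc y * (h * e * h⁻¹) = h * ((h⁻¹ * y * h) * e) * h⁻¹ := by group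
      _ = h * (e * (h⁻¹ * y * h)) * h⁻¹ := by rw [h5]
      _ = (h * e * h⁻¹) * y := by group
  -- fixed-point-freeness outside C
  have hfpfC : ∀ g : X, g ∉ C → ∀ m ∈ M, m * g = g * m → m = 1 := by
    intro g hg m hm hmg
    by_contra hm1
    have hN := hnorm M inferInstance le_rfl hab g
    have hne' : M ⊓ Subgroup.centralizer ({g} : Set X) ≠ ⊥ := by
      intro hbot
      have : m ∈ M ⊓ Subgroup.centralizer ({g} : Set X) := by
        refine Subgroup.mem_inf.mpr ⟨hm, ?_⟩
        rw [Subgroup.mem_centralizer_iff]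
        intro y hy
        rw [Set.mem_singleton_iff] at hy
        subst hy
        exact hmg.symm
      rw [hbot, Subgroup.mem_bot] at this
      exact hm1 this
    have hle := hmin _ hN hne'
    apply hg
    rw [hC, Subgroup.mem_centralizer_iff]
    intro x hx
    have := (Subgroup.mem_inf.mp (hle hx)).2
    have := Subgroup.mem_centralizer_iff.mp this g (Set.mem_singleton g)
    exact this.symm
  -- C ≠ ⊤
  have hCtop : ∃ g : X, g ∉ C := by
    by_contra hcon
    push Not at hcon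
    apply hne
    rw [eq_bot_iff]
    intro m hm
    have : m ∈ Subgroup.center X := by
      rw [Subgroup.mem_center_iff]
      intro g
      have := Subgroup.mem_centralizer_iff.mp (hcon g) m hm
      exact this.symm
    rwa [hZ] at this
  obtain ⟨g, hg⟩ := hCtop
  have hCnormal : C.Normal := by
    rw [hC]; infer_instance
  have hCM : C ≤ M := by
    intro c hc
    -- the map m ↦ m g m⁻¹ g⁻¹ on M is injective hence surjective
    let φ : M → M := fun m => ⟨(m : X) * g * (m : X)⁻¹ * g⁻¹, hmem m g⟩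
    have hinj : Function.Injective φ := by
      intro m₁ m₂ h12
      have h12' : (m₁ : X) * g * (m₁ : X)⁻¹ * g⁻¹ = (m₂ : X) * g * (m₂ : X)⁻¹ * g⁻¹ :=
        congrArg Subtype.val h12
      have h6 := comm_eq_imp h12'
      have h7 := hfpfC g hg ((m₂ : X)⁻¹ * m₁) (M.mul_mem (M.inv_mem m₂.2) m₁.2) h6
      apply Subtype.ext
      have := congrArg (fun x => (m₂ : X) * x) h7
      simpa [mul_assoc] using this
    have hsurj : Function.Surjective φ := Finite.surjective_of_injective hinj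
    obtain ⟨m, hm⟩ := hsurj ⟨c * g * c⁻¹ * g⁻¹, hmem c g⟩
    have hm' : (m : X) * g * (m : X)⁻¹ * g⁻¹ = c * g * c⁻¹ * g⁻¹ := congrArg Subtype.val hm
    have h8 := comm_eq_imp hm'.symm
    -- e := m⁻¹ c ∈ C ⊓ C(g)
    have heC : (m : X)⁻¹ * c ∈ C := C.mul_mem (C.inv_mem (hMC m.2)) hc
    have hN := hnorm C hCnormal hMC hCab g
    have hbot : C ⊓ Subgroup.centralizer ({g} : Set X) = ⊥ := by
      by_contra hne'
      have hle := hmin _ hN hne'
      apply hne
      rw [eq_bot_iff]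
      intro x hx
      have hxg := (Subgroup.mem_inf.mp (hle hx)).2
      have hxg' := Subgroup.mem_centralizer_iff.mp hxg g (Set.mem_singleton g)
      rw [Subgroup.mem_bot]
      exact hfpfC g hg x hx hxg'.symm
    have : (m : X)⁻¹ * c ∈ C ⊓ Subgroup.centralizer ({g} : Set X) := by
      refine Subgroup.mem_inf.mpr ⟨heC, ?_⟩
      rw [Subgroup.mem_centralizer_iff]
      intro y hy
      rw [Set.mem_singleton_iff] at hy
      subst hy
      exact h8.symm
    rw [hbot, Subgroup.mem_bot] at this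
    have hcm : c = m := by
      have := congrArg (fun x => (m : X) * x) this
      simpa [mul_assoc] using this
    rw [hcm]; exact m.2
  have hCeq : C = M := le_antisymm hCM hMC
  refine ⟨hCeq, ?_⟩
  intro g' hg' m hm hmg
  exact hfpfC g' (by rw [hCeq]; exact hg') m hm hmg

end Cfsg.Agent.Lib.Helper57.IP
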