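import Cfsg.Agent.Lib.Helper86.IP.Defs
import Cfsg.Agent.Lib.Helper57.IP.FrobStruct

/-!
# S4463 team project, package [STR]: `LemStr`

Structure of a nonabelian group `Q` with trivial centre whose abelian commutator subgroup `V`
is contained in every nontrivial normal subgroup: `Q = V ⋊ L` is a Frobenius group with
`L = C_Q(a)` for any `a ∉ V`.
-/

set_option autoImplicit false

namespace Cfsg.Agent.Lib.Helper57.IP

universe u

open scoped commutatorElement Pointwise

/-- If `l` has prime order `p` and acts fixed-point-freely by conjugation on the finite normal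
subgroup `V`, then `|V| ≡ 1 mod p`. -/
theorem card_modEq_one_of_fpf {X : Type*} [Group X] [Finite X] (V : Subgroup X) [V.Normal]
    (l : X) (p : ℕ) [Fact p.Prime] (hl : orderOf l = p)
    (hfpf : ∀ m ∈ V, m * l = l * m → m = 1) : Nat.card V ≡ 1 [MOD p] := by
  classical
  let act : MulAction (Subgroup.zpowers l) V :=
    MulAction.compHom V ((MulAut.conjNormal (H := V)).comp (Subgroup.zpowers l).subtype)
  have hP : IsPGroup p (Subgroup.zpowers l) :=
    IsPGroup.of_card (n := 1) (by rw [Nat.card_zpowers, hl, pow_one])
  have h := hP.card_modEq_card_fixedPoints V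
  have hfix : MulAction.fixedPoints (Subgroup.zpowers l) V = {1} := by
    ext v
    simp only [MulAction.mem_fixedPoints, Set.mem_singleton_iff]
    constructor
    · intro hv
      have h1 := hv ⟨l, Subgroup.mem_zpowers l⟩
      have h2 : l * (v : X) * l⁻¹ = v := congrArg Subtype.val h1
      apply Subtype.ext
      apply hfpf v v.2
      have := congrArg (fun t => t * l) h2
      simpa [mul_assoc] using this.symm
    · rintro rfl g
      exact map_one (MulAut.conjNormal (H := V) (g : X))
  rw [hfix] at h
  simpa using h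

theorem lemStr : Cfsg.Agent.Lib.Helper86.IP.LemStr.{u} := by
  intro Q _ _ hnab hmin hZ hVab
  classical
  have hmem : ∀ c g : Q, c * g * c⁻¹ * g⁻¹ ∈ commutator Q := by
    intro c g
    rw [commutator_def]
    have : ⁅c, g⁆ ∈ ⁅(⊤ : Subgroup Q), (⊤ : Subgroup Q)⁆ :=
      Subgroup.commutator_mem_commutator (Subgroup.mem_top c) (Subgroup.mem_top g)
    simpa [commutatorElement_def] using this
  have hVne : commutator Q ≠ ⊥ := by
    intro h
    apply hnab
    intro x y
    have h1 := hmem x y
    rw [h, Subgroup.mem_bot] at h1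
    have := congrArg (fun t => t * y * x) h1
    simpa [mul_assoc] using this
  obtain ⟨hCV, hfpf⟩ := centralizer_eq_and_fpf (commutator Q) hVab le_rfl hmin hVne hZ
  obtain ⟨a, ha⟩ : ∃ a : Q, a ∉ commutator Q := by
    by_contra hcon
    push Not at hcon
    exact hnab (fun x y => hVab x (hcon x) y (hcon y))
  set L := Subgroup.centralizer ({a} : Set Q) with hL
  have hLmem : ∀ x : Q, x ∈ L ↔ x * a = a * x := by
    intro x
    rw [hL, Subgroup.mem_centralizer_iff]
    constructor
    · intro h; exact (h a (Set.mem_singleton a)).symm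
    · intro h y hy
      rw [Set.mem_singleton_iff] at hy
      subst hy
      exact h.symm
  have hdisj : Disjoint (commutator Q) L := by
    rw [Subgroup.disjoint_def]
    intro x hxV hxL
    exact hfpf a ha x hxV ((hLmem x).mp hxL)
  have hmul : ((commutator Q : Subgroup Q) : Set Q) * (L : Set Q) = Set.univ := by
    rw [Set.eq_univ_iff_forall]
    intro g
    let φ : commutator Q → commutator Q :=
      fun m => ⟨(m : Q) * a * (m : Q)⁻¹ * a⁻¹, hmem m a⟩
    have hinj : Function.Injective φ := by
      intro m₁ m₂ h12
      have h12' : (m₁ : Q) * a * (m₁ : Q)⁻¹ * a⁻¹ = (m₂ : Q) * a * (m₂ : Q)⁻¹ * a⁻¹ :=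
        congrArg Subtype.val h12
      have h6 := comm_eq_imp h12'
      have h7 := hfpf a ha ((m₂ : Q)⁻¹ * m₁)
        (Subgroup.mul_mem _ (Subgroup.inv_mem _ m₂.2) m₁.2) h6
      apply Subtype.ext
      have := congrArg (fun x => (m₂ : Q) * x) h7
      simpa [mul_assoc] using this
    have hsurj : Function.Surjective φ := Finite.surjective_of_injective hinj
    obtain ⟨m, hm⟩ := hsurj ⟨g * a * g⁻¹ * a⁻¹, hmem g a⟩
    have hm' : (m : Q) * a * (m : Q)⁻¹ * a⁻¹ = g * a * g⁻¹ * a⁻¹ := congrArg Subtype.val hm
    have h8 := comm_eq_imp hm'.symm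
    refine Set.mem_mul.mpr ⟨(m : Q), m.2, (m : Q)⁻¹ * g, (hLmem _).mpr h8, ?_⟩
    group
  have hcompl : Subgroup.IsComplement' (commutator Q) L :=
    Subgroup.isComplement'_of_disjoint_and_mul_eq_univ hdisj hmul
  have hcard : Nat.card (commutator Q) * Nat.card L = Nat.card Q := hcompl.card_mul_card
  have hidx : (commutator Q).index = Nat.card L := hcompl.symm.index_eq_card
  have hcore : L.normalCore = ⊥ := by
    by_contra hne
    have h1 := hmin L.normalCore (Subgroup.normalCore_normal L) hne
    have h2 : commutator Q ≤ L := h1.trans (Subgroup.normalCore_le L)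
    apply hVne
    rw [eq_bot_iff]
    intro x hx
    exact Subgroup.mem_bot.mpr (Subgroup.disjoint_def.mp hdisj hx (h2 hx))
  have hcop : Nat.Coprime (Nat.card L) (Nat.card (commutator Q)) := by
    apply Nat.coprime_of_dvd
    intro p hp hpL hpV
    have : Fact p.Prime := ⟨hp⟩
    obtain ⟨l, hl⟩ := exists_prime_orderOf_dvd_card' p hpL
    have hlne : (l : Q) ≠ 1 := by
      intro h1
      have : l = 1 := Subtype.ext h1
      rw [this, orderOf_one] at hl
      exact hp.one_lt.ne hl
    have hlV : (l : Q) ∉ commutator Q :=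
      fun h => hlne (Subgroup.disjoint_def.mp hdisj h l.2)
    have hmod := card_modEq_one_of_fpf (commutator Q) (l : Q) p
      (by rw [Subgroup.orderOf_coe]; exact hl) (fun m hm hml => hfpf l hlV m hm hml)
    have h1 : p ∣ 1 :=
      Nat.modEq_zero_iff_dvd.mp (hmod.symm.trans (Nat.modEq_zero_iff_dvd.mpr hpV))
    exact hp.one_lt.ne' (Nat.dvd_one.mp h1)
  refine ⟨L, hcore, ?_, hcop, ?_⟩
  · rw [mul_comm]; exact hcard
  · intro g hg
    by_cases hgV : g ∈ commutator Q
    · left
      have hle : Subgroup.centralizer ({g} : Set Q) ≤ commutator Q := by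
        intro c hc
        by_contra hcV
        apply hg
        have := Subgroup.mem_centralizer_iff.mp hc g (Set.mem_singleton g)
        exact hfpf c hcV g hgV this
      have h1 : (commutator Q).index ∣ (Subgroup.centralizer ({g} : Set Q)).index :=
        Subgroup.index_dvd_of_le hle
      rw [← hidx]
      exact Nat.le_of_dvd (Nat.pos_of_ne_zero Subgroup.index_ne_zero_of_finite) h1
    · right
      set C := Subgroup.centralizer ({g} : Set Q) with hC
      have hinf : commutator Q ⊓ C = ⊥ := by
        rw [eq_bot_iff]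
        intro x hx
        obtain ⟨hxV, hxC⟩ := Subgroup.mem_inf.mp hx
        have := Subgroup.mem_centralizer_iff.mp hxC g (Set.mem_singleton g)
        exact Subgroup.mem_bot.mpr (hfpf g hgV x hxV this.symm)
      have h1 : (commutator Q).relIndex C = Nat.card C := by
        rw [← Subgroup.inf_relIndex_right, hinf, Subgroup.relIndex_bot_left]
      have h2 : Nat.card C ∣ (commutator Q).index := by
        rw [← h1]; exact Subgroup.relIndex_dvd_index_of_normal _ _
      have h3 : Nat.card C ≤ Nat.card L := by
        rw [← hidx]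
        exact Nat.le_of_dvd (Nat.pos_of_ne_zero Subgroup.index_ne_zero_of_finite) h2
      have h4 : C.index * Nat.card C = Nat.card Q := Subgroup.index_mul_card C
      have hLpos : 0 < Nat.card L := Nat.card_pos
      have h5 : Nat.card (commutator Q) * Nat.card L ≤ C.index * Nat.card L := by
        rw [hcard, ← h4]; exact Nat.mul_le_mul_left _ h3
      exact Nat.le_of_mul_le_mul_right h5 hLpos

end Cfsg.Agent.Lib.Helper57.IP
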